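import Cfsg.Agent.H142.GLn.Base
import Cfsg.Agent.H157.GLB.DG

/-!
# S4536, D4-F3: `base_chain` (helper142)
-/

set_option autoImplicit false
set_option linter.unusedSectionVars false
open Polynomial Cfsg
open scoped ComplexConjugate TensorProduct MatrixGroups

namespace Cfsg.Agent.H142.GLn

open Cfsg.Agent.H614 Cfsg.Agent.H614.GLn Cfsg.Agent.H577.GLB.Std Cfsg.Agent.H624.Sl Cfsg.Agent.Blocks.Local
open Cfsg.Agent.H577.GLB.Real (Om coP PhiF evA IsLab linH PGen)

universe u v w

variable {F : Type u} [Field F] [Finite F] {K : Type u} [Field K] [Algebra F K] {θ : K →*₀ ℂ} {N M : ℕ} [NeZero M]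
  {p : ℕ} {𝔐 : Ideal AlgInt} [𝔐.IsPrime]

/-- a prime different from the characteristic does not divide the number of elements -/
theorem isUnit_card_zmod (hp : p.Prime) (hpF : p ≠ ringChar F) : IsUnit ((((Nat.card F : ℕ) : ℤ)) : ZMod p) := by
  have : Fact p.Prime := ⟨hp⟩
  have hr : (ringChar F).Prime := CharP.char_is_prime F _
  have : Fact (ringChar F).Prime := ⟨hr⟩
  have := Fintype.ofFinite F
  obtain ⟨n, -, hn⟩ := FiniteField.card F (ringChar F)
  rw [Int.cast_natCast, ZMod.isUnit_iff_coprime, Nat.card_eq_fintype_card, hn]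
  exact Nat.Coprime.pow_left _ ((Nat.coprime_primes hr hp).2 (Ne.symm hpF))

/-- F3: base case of the chain: weight zero means defect zero, and the strong stabiliser fixes the character -/
theorem base_chain (hctx : Ctx F θ N M) (hpF : p ≠ ringChar F) (h𝔐 : IsPModular p 𝔐) {m n : ℕ} (hn : n ≤ N)
    (hm : n ≤ m) {χ : IrrCharacter (GL (Fin n) F)} {t : LabZ (Nat.card F) M m n} (ht : IsLab θ M m n χ t)
    (ht' : POnly M p t.t) (h0 : totW (Nat.card F) M p t.t = 0) :
    (charDegree (χ : GL (Fin n) F → ℂ)).factorization p = (Nat.card (GL (Fin n) F)).factorization p ∧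
    ∀ a : ZMod M, SF (Nat.card F) M p t a → FixIrr (dch n (linH F θ M a)) (χ : GL (Fin n) F → ℂ) :=
  base_of_alone hctx h𝔐.1 hpF hn hm ht fun t' h =>
    H157.GLB.eq_of_totW_zero h𝔐.1 (H112.GLB.isUnit_card hctx) (isUnit_card_zmod h𝔐.1 hpF) hm t t' ht' h0 h

end Cfsg.Agent.H142.GLn
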